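/-
Helper library (helper87): the unlisted lemmas of Bender–Glauberman sections 13-14 that lead to
S1430 / S1431 (BG 13.5, 13.6, 13.7, 13.10, 13.11, 13.12, 14.2), stated as `Prop`s so that each of them
can be derived from the earlier ones independently (bulletin #818).
-/
import Cfsg.Prelude.Def_OddOrderLocal

set_option autoImplicit false

namespace Cfsg.Agent.Lib.Helper87.BG14

open Subgroup Cfsg

universe u

/-- `C_{M_σ}(X)`. -/
abbrev cs {G : Type u} [Group G] (M X : Subgroup G) : Subgroup G :=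
  sigmaCore M ⊓ centralizer (X : Set G)

variable (G : Type u) [Group G]

/-- (13.5) prime action of a Hall `τ₁(M)`-subgroup of a complement. -/
def L135 : Prop :=
  ∀ M E E₁ : Subgroup G, IsCoatom M → IsComplIn E (sigmaCore M) M → IsPiHallOf (tau1 M) E₁ E →
    ∀ x ∈ E₁, x ≠ 1 → sigmaCore M ⊓ centralizer ({x} : Set G) = cs M E₁

/-- (C3) `C_{E₃}(E) = 1`. -/
def C3 : Prop :=
  ∀ M E E₃ : Subgroup G, IsCoatom M → IsComplIn E (sigmaCore M) M → IsPiHallOf (tau3 M) E₃ E →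
    E₃ ⊓ centralizer (E : Set G) = ⊥

/-- L1 (CYC). -/
def L1 : Prop :=
  ∀ M : Subgroup G, IsCoatom M → ∀ p : ℕ, p.Prime → p ∉ sigma M → PRankLE p 1 M →
    ∀ P : Subgroup G, P ≤ M → Nat.card P = p →
    ∀ (q : ℕ) (Q : Subgroup G), q.Prime → IsPGroup q Q → Q ≤ cs M P → IsCyclic Q

/-- L2 (NORM). -/
def L2 : Prop :=
  ∀ M : Subgroup G, IsCoatom M → ∀ p : ℕ, p.Prime → p ∉ sigma M → PRankLE p 1 M →
    ∀ P : Subgroup G, P ≤ M → Nat.card P = p →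
    ∀ X : Subgroup G, X ≤ cs M P → (Nat.card X).Prime → Nat.card X ∉ beta M →
    ∃ E : Subgroup G, IsComplIn E (sigmaCore M) M ∧ P ≤ E ∧ E ≤ normalizer (X : Set G) ∧
      ⁅E, E⁆ ≤ centralizer (X : Set G)

/-- L3 (Theorem U). -/
def L3 : Prop :=
  ∀ M : Subgroup G, IsCoatom M → ∀ P : Subgroup G, P ≤ M → Nat.card P ∈ tau1 M →
    ∀ X : Subgroup G, X ≤ cs M P → (Nat.card X).Prime → normalizer (X : Set G) ≤ M

/-- L4 (BG 13.12). -/
def L4 : Prop :=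
  ∀ M E : Subgroup G, IsCoatom M → IsComplIn E (sigmaCore M) M →
    ∀ P : Subgroup G, P ≤ E → Nat.card P ∈ tau1 M →
    ∀ q ∈ tau2 M, ∀ A : Subgroup G, A ≤ E → IsElementaryAbelian q A → Nat.card A = q ^ 2 →
    A ⊓ centralizer (P : Set G) ≠ ⊥ → cs M P = ⊥

/-- L5 (BG 14.2(b), second part). -/
def L5 : Prop :=
  ∀ M : Subgroup G, IsCoatom M → ∀ P : Subgroup G, P ≤ M → Nat.card P ∈ kappa M →
    ∀ H : Subgroup G, IsCoatom H → normalizer (P : Set G) ≤ H → Nat.card P ∈ sigma H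

/-- L6 (the partner of a `κ`-subgroup of prime order). -/
def L6 : Prop :=
  ∀ M : Subgroup G, IsCoatom M → ∀ P : Subgroup G, P ≤ M → Nat.card P ∈ kappa M →
    ∀ H : Subgroup G, IsCoatom H → normalizer (P : Set G) ≤ H →
    (∀ q, q ∈ sigma M → q ∉ sigma H) ∧ sigmaCore M ⊓ H = cs M P ∧
    (∀ q : ℕ, q.Prime → q ∣ Nat.card (cs M P) → q ∈ kappa H) ∧
    ∀ X : Subgroup G, X ≤ cs M P → (Nat.card X).Prime →
      normalizer (X : Set G) ≤ M ∧ cs H X = sigmaCore H ⊓ M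

/-- The configuration of L7: `R ≤ E` of order `r ∈ τ₃(M)` with `C_{M_σ}(R) ≠ 1`, `N(R) ≤ H`. -/
structure T3Cfg {G : Type u} [Group G] (M H E R : Subgroup G) : Prop where
  hM : IsCoatom M
  hH : IsCoatom H
  hE : IsComplIn E (sigmaCore M) M
  hRE : R ≤ E
  hr : Nat.card R ∈ tau3 M
  hY : cs M R ≠ ⊥
  hNR : normalizer (R : Set G) ≤ H

/-- L7 (the `τ₃` set-up). -/
def L7 : Prop :=
  ∀ M H E R : Subgroup G, T3Cfg M H E R →
    E ≤ H ∧ Nat.card R ∈ sigma H ∧ (∀ q, q ∈ sigma M → q ∉ sigma H) ∧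
    sigmaCore M ⊓ H = cs M R ∧ M ⊓ H = cs M R ⊔ E ∧ tau2 M = ∅ ∧
    sigmaCore H ⊓ M ≤ E ∧ cs M R ≤ centralizer ((sigmaCore H ⊓ M : Subgroup G) : Set G) ∧
    ∀ R' : Subgroup G, R' ≤ E → Nat.card R' ∈ tau3 M → cs M R' = cs M R

/-- L8a. -/
def L8a : Prop :=
  ∀ M H E R : Subgroup G, T3Cfg M H E R → ∀ P : Subgroup G, P ≤ E → Nat.card P ∈ tau1 M →
    ¬ P ≤ centralizer (R : Set G) → ¬ cs M P ≤ cs M R ∧ Nat.card P ∉ sigma H

/-- L8b (case `[Y,P] = 1`). -/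
def L8b : Prop :=
  ∀ M H E R : Subgroup G, T3Cfg M H E R → ∀ P : Subgroup G, P ≤ E → Nat.card P ∈ tau1 M →
    cs M R ≤ centralizer (P : Set G) → P ≤ centralizer (R : Set G)

/-- L8c (case `[Y,P] ≠ 1`: the mirror configuration). -/
def L8c : Prop :=
  ∀ M H E R : Subgroup G, T3Cfg M H E R → ∀ P : Subgroup G, P ≤ E → Nat.card P ∈ tau1 M →
    ¬ cs M R ≤ centralizer (P : Set G) →
    ∃ E' X : Subgroup G, T3Cfg H M E' X ∧ P ≤ E' ∧ Nat.card P ∈ tau1 H ∧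
      ¬ P ≤ centralizer (X : Set G)

/-- L8e (HALF). -/
def L8e : Prop :=
  ∀ M H E R : Subgroup G, T3Cfg M H E R → ∀ P : Subgroup G, P ≤ E → Nat.card P ∈ tau1 M →
    ¬ cs M P ≤ cs M R → ¬ cs M R ≤ centralizer (P : Set G) →
    ∀ T : Subgroup G, T ≤ M ⊓ centralizer (P : Set G) →
      (∀ t : ℕ, t.Prime → t ∣ Nat.card T → t ∈ sigma H) → T = ⊥

/-- L8g: `C_{M_σ}(P)` is a Hall subgroup of `C_G(P)` for `P` of order `p ∈ κ(M)`. -/
def L8g : Prop :=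
  ∀ M : Subgroup G, IsCoatom M → ∀ P : Subgroup G, P ≤ M → Nat.card P ∈ kappa M →
    (Nat.card (cs M P)).Coprime ((cs M P).relIndex (centralizer (P : Set G)))

/-- L8f (two mirror configurations are contradictory). -/
def L8f : Prop :=
  ∀ M H E R E' X P : Subgroup G, T3Cfg M H E R → T3Cfg H M E' X → P ≤ E → P ≤ E' →
    Nat.card P ∈ tau1 M → Nat.card P ∈ tau1 H →
    ¬ P ≤ centralizer (R : Set G) → ¬ P ≤ centralizer (X : Set G) → False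

/-- L8 (Lemma R = BG 13.10). -/
def L8 : Prop :=
  ∀ M E R P : Subgroup G, IsCoatom M → IsComplIn E (sigmaCore M) M → R ≤ E →
    Nat.card R ∈ tau3 M → cs M R ≠ ⊥ → P ≤ E → Nat.card P ∈ tau1 M →
    P ≤ centralizer (R : Set G)

/-- L9 (Case A: `κ(M) ∩ τ₃(M) ≠ ∅`). -/
def L9 : Prop :=
  ∀ M E R : Subgroup G, IsCoatom M → IsComplIn E (sigmaCore M) M → R ≤ E →
    Nat.card R ∈ tau3 M → cs M R ≠ ⊥ →
    tau2 M = ∅ ∧ (∀ e ∈ E, e ≠ 1 → sigmaCore M ⊓ centralizer ({e} : Set G) = cs M E) ∧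
    cs M E ≠ ⊥ ∧ ∀ X : Subgroup G, X ≤ E → (Nat.card X).Prime → E ≤ normalizer (X : Set G)

/-- L10 (Case B: `κ(M) ≠ ∅`, `κ(M) ∩ τ₃(M) = ∅`). -/
def L10 : Prop :=
  ∀ M E K : Subgroup G, IsCoatom M → IsComplIn E (sigmaCore M) M → IsPiHallOf (tau1 M) K E →
    (kappa M).Nonempty → (∀ r ∈ tau3 M, r ∉ kappa M) →
    kappa M = tau1 M ∧ cs M K ≠ ⊥ ∧
    ∃ U : Subgroup G, U ≤ ⁅E, E⁆ ∧ E ≤ normalizer (U : Set G) ∧ IsMulCommutative U ∧
      IsPiHallOf {q | q.Prime ∧ q ∉ tau1 M} U E ∧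
      ∀ k ∈ K, k ≠ 1 → U ⊓ centralizer ({k} : Set G) = ⊥

/-- Lemma V (BG 13.6 / 14.2(c)). -/
def LV : Prop :=
  ∀ M K : Subgroup G, IsCoatom M → IsPiHallOf (kappa M) K M → K ≠ ⊥ →
    ∀ X : Subgroup G, X ≤ cs M K → (Nat.card X).Prime →
    Nat.card X ∈ beta M ∨ X ≤ ⁅sigmaCore M, sigmaCore M⁆

end Cfsg.Agent.Lib.Helper87.BG14
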