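/-
Piece [L] of the BG14 farm (helper87 #848), written by helper62: an abstract Hall-subgroup lemma.
-/
import Mathlib
import Cfsg.Agent.Lib.Helper1.Hall
import Cfsg.Agent.Lib.Helper1.MinimalNormal

set_option autoImplicit false

namespace Cfsg.Agent.Lib.Helper87.BG14

open Subgroup Pointwise
open Cfsg.Agent.Lib.Helper1 (hall_dominance hall_conj normal_le_of_card_dvd exists_minimal_normal
  minimal_normal_elementary_abelian)

/-- One half of `gam_aux`: a minimal normal `p`-subgroup lies in the factor whose order `p` divides. -/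
theorem gam_aux_half {G : Type*} [Group G] [Finite G] (J A : Subgroup G) (b : ℕ)
    (hA : A ≤ J) (hcard : Nat.card J = Nat.card A * b) (hcop : (Nat.card A).Coprime b)
    (hcA : ∀ (t : ℕ) (T : Subgroup G), t.Prime → IsPGroup t T → T ≤ A → IsCyclic T)
    (N : Subgroup J) [N.Normal] (hN : N ≠ ⊥) (p : ℕ) (hp : p.Prime) (hexp : ∀ x ∈ N, x ^ p = 1)
    (hpA : p ∣ Nat.card A) :
    ∃ T : Subgroup G, T ≤ A ∧ (Nat.card T).Prime ∧ J ≤ normalizer (T : Set G) := by
  have : Fact p.Prime := ⟨hp⟩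
  have hPN : IsPGroup p N := by
    intro x
    refine ⟨1, ?_⟩
    rw [pow_one]
    exact Subtype.ext (hexp x x.2)
  obtain ⟨k, hk⟩ := IsPGroup.iff_card.1 hPN
  have hpb : p.Coprime b := Nat.Coprime.coprime_dvd_left hpA hcop
  have hdvd : Nat.card N ∣ Nat.card A := by
    have h1 : Nat.card N ∣ Nat.card A * b := by
      rw [← hcard]; exact Subgroup.card_subgroup_dvd_card N
    refine Nat.Coprime.dvd_of_dvd_mul_right ?_ h1
    rw [hk]; exact Nat.Coprime.pow_left k hpb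
  have hle : N ≤ A.subgroupOf J :=
    normal_le_of_card_dvd (G := J) hcard hcop hdvd (Cfsg.Agent.Lib.Helper1.card_subgroupOf hA)
  have hTJ : N.map J.subtype ≤ J := by
    rintro _ ⟨x, -, rfl⟩; exact x.2
  have hTA : N.map J.subtype ≤ A := by
    rintro _ ⟨x, hx, rfl⟩; exact hle hx
  have hcardT : Nat.card (N.map J.subtype) = Nat.card N :=
    Subgroup.card_map_of_injective J.subtype_injective
  have hPT : IsPGroup p (N.map J.subtype) := IsPGroup.of_card (hcardT.trans hk)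
  have hcyc : IsCyclic (N.map J.subtype) := hcA p _ hp hPT hTA
  have hexpT : Monoid.exponent (N.map J.subtype) ∣ p := by
    apply Monoid.exponent_dvd_of_forall_pow_eq_one
    rintro ⟨_, x, hx, rfl⟩
    apply Subtype.ext
    have := hexp x hx
    simpa using congrArg J.subtype this
  rw [IsCyclic.exponent_eq_card] at hexpT
  have hne1 : Nat.card (N.map J.subtype) ≠ 1 := by
    rw [hcardT]
    intro h
    exact hN (Subgroup.card_eq_one.1 h)
  have hcp : Nat.card (N.map J.subtype) = p := ((Nat.dvd_prime hp).1 hexpT).resolve_left hne1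
  refine ⟨N.map J.subtype, hTA, by rw [hcp]; exact hp, ?_⟩
  rw [← Subgroup.normal_subgroupOf_iff_le_normalizer hTJ]
  have : (N.map J.subtype).subgroupOf J = N := by
    ext x
    rw [Subgroup.mem_subgroupOf]
    constructor
    · rintro ⟨y, hy, hxy⟩
      have : y = x := Subtype.ext hxy
      exact this ▸ hy
    · intro hx
      exact ⟨x, hx, rfl⟩
  rw [this]
  infer_instance

/-- A solvable group `J = A B` with `A`, `B` of coprime orders and cyclic Sylow subgroups has a normal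
subgroup of prime order inside `A` or inside `B`. -/
theorem gam_aux {G : Type*} [Group G] [Finite G] (J A B : Subgroup G) (hsolv : Group.IsSolvable J)
    (hA : A ≤ J) (hB : B ≤ J) (hcard : Nat.card J = Nat.card A * Nat.card B)
    (hcop : (Nat.card A).Coprime (Nat.card B)) (hne : A ≠ ⊥)
    (hcA : ∀ (t : ℕ) (T : Subgroup G), t.Prime → IsPGroup t T → T ≤ A → IsCyclic T)
    (hcB : ∀ (t : ℕ) (T : Subgroup G), t.Prime → IsPGroup t T → T ≤ B → IsCyclic T) :
    ∃ T : Subgroup G, (T ≤ A ∨ T ≤ B) ∧ (Nat.card T).Prime ∧ J ≤ normalizer (T : Set G) := by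
  have : Nontrivial J := by
    rw [Subgroup.nontrivial_iff_ne_bot]
    rintro rfl
    exact hne (le_bot_iff.1 hA)
  obtain ⟨N, hNn, hN, hmin⟩ := exists_minimal_normal (G := J)
  have := hNn
  obtain ⟨-, p, hp, hexp⟩ := minimal_normal_elementary_abelian N inferInstance hN hmin
  have : Fact p.Prime := ⟨hp⟩
  have hpN : p ∣ Nat.card N := by
    obtain ⟨x, hx, hx1⟩ : ∃ x : J, x ∈ N ∧ x ≠ 1 := by
      obtain ⟨x, hx⟩ := Subgroup.ne_bot_iff_exists_ne_one.1 hN
      exact ⟨x, x.2, fun h => hx (Subtype.ext h)⟩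
    have h1 : orderOf (x : J) = p := orderOf_eq_prime (hexp _ hx) hx1
    have h2 : orderOf (⟨x, hx⟩ : N) = p := by
      rw [← h1]; exact (Subgroup.orderOf_mk _ _)
    rw [← h2]
    exact orderOf_dvd_natCard _
  have hpJ : p ∣ Nat.card A * Nat.card B := by
    rw [← hcard]
    exact hpN.trans (Subgroup.card_subgroup_dvd_card N)
  rcases (Nat.Prime.dvd_mul hp).1 hpJ with h | h
  · obtain ⟨T, h1, h2, h3⟩ := gam_aux_half J A (Nat.card B) hA hcard hcop hcA N hN p hp hexp h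
    exact ⟨T, Or.inl h1, h2, h3⟩
  · obtain ⟨T, h1, h2, h3⟩ := gam_aux_half J B (Nat.card A) hB (by rw [hcard, mul_comm]) hcop.symm
      hcB N hN p hp hexp h
    exact ⟨T, Or.inr h1, h2, h3⟩

/-- Piece [L]. -/
theorem gam {G : Type*} [Group G] [Finite G] (Γ D₁ D₂ : Subgroup G) (hsolv : Group.IsSolvable Γ) (h1 : D₁ ≤ Γ) (h2 : D₂ ≤ Γ) (hD1 : D₁ ≠ ⊥) (hD2 : D₂ ≠ ⊥)
  (hcop : (Nat.card D₁).Coprime (Nat.card D₂)) (hH1 : (Nat.card D₁).Coprime (D₁.relIndex Γ)) (hH2 : (Nat.card D₂).Coprime (D₂.relIndex Γ))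
  (hc1 : ∀ (t : ℕ) (T : Subgroup G), t.Prime → IsPGroup t T → T ≤ D₁ → IsCyclic T) (hc2 : ∀ (t : ℕ) (T : Subgroup G), t.Prime → IsPGroup t T → T ≤ D₂ → IsCyclic T) :
  ∃ c ∈ Γ, (∃ T : Subgroup G, T ≤ D₁ ∧ (Nat.card T).Prime ∧ D₂.map (MulAut.conj c).toMonoidHom ≤ Subgroup.normalizer (T : Set G)) ∨
           (∃ T : Subgroup G, T ≤ D₂ ∧ (Nat.card T).Prime ∧ D₁.map (MulAut.conj c).toMonoidHom ≤ Subgroup.normalizer (T : Set G)) := by
  have e1 : D₁.relIndex Γ * Nat.card D₁ = Nat.card Γ := Cfsg.Agent.Lib.Helper1.relIndex_mul_card h1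
  have e2 : D₂.relIndex Γ * Nat.card D₂ = Nat.card Γ := Cfsg.Agent.Lib.Helper1.relIndex_mul_card h2
  have hd2 : Nat.card D₂ ∣ D₁.relIndex Γ := by
    refine hcop.symm.dvd_of_dvd_mul_right ?_
    rw [e1, ← e2]; exact dvd_mul_left _ _
  obtain ⟨n, hn⟩ := hd2
  have hΓ : Nat.card Γ = (Nat.card D₁ * Nat.card D₂) * n := by rw [← e1, hn]; ring
  have hc1n : (Nat.card D₁).Coprime n :=
    Nat.Coprime.coprime_dvd_right (Dvd.intro_left _ hn.symm) hH1
  have hrel2 : D₂.relIndex Γ = Nat.card D₁ * n := by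
    have hpos : 0 < Nat.card D₂ := Nat.card_pos
    apply Nat.eq_of_mul_eq_mul_right hpos
    rw [e2, hΓ]; ring
  have hc2n : (Nat.card D₂).Coprime n :=
    Nat.Coprime.coprime_dvd_right (Dvd.intro_left _ hrel2.symm) hH2
  have hmn : (Nat.card D₁ * Nat.card D₂).Coprime n := Nat.Coprime.mul_left hc1n hc2n
  obtain ⟨J₁, hJ₁, hDJ₁⟩ := hall_dominance (G := Γ) _ n hΓ hmn (D₁.subgroupOf Γ)
    (by rw [Cfsg.Agent.Lib.Helper1.card_subgroupOf h1]; exact hc1n)
  obtain ⟨J₂, hJ₂, hDJ₂⟩ := hall_dominance (G := Γ) _ n hΓ hmn (D₂.subgroupOf Γ)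
    (by rw [Cfsg.Agent.Lib.Helper1.card_subgroupOf h2]; exact hc2n)
  obtain ⟨g, hg⟩ := hall_conj (G := Γ) _ n hΓ hmn J₂ J₁ hJ₂ hJ₁
  have hJΓ : J₁.map Γ.subtype ≤ Γ := by
    rintro _ ⟨x, -, rfl⟩; exact x.2
  have hD1J : D₁ ≤ J₁.map Γ.subtype := fun x hx =>
    ⟨⟨x, h1 hx⟩, hDJ₁ (by rw [Subgroup.mem_subgroupOf]; exact hx), rfl⟩
  have hBJ : D₂.map (MulAut.conj (g : G)).toMonoidHom ≤ J₁.map Γ.subtype := by
    rintro _ ⟨x, hx, rfl⟩
    have h3 : (MulAut.conj g) • (⟨x, h2 hx⟩ : Γ) ∈ MulAut.conj g • J₂ :=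
      Subgroup.smul_mem_pointwise_smul _ _ _ (hDJ₂ (by rw [Subgroup.mem_subgroupOf]; exact hx))
    rw [hg] at h3
    exact ⟨_, h3, by simp [MulAut.smul_def]⟩
  have hinj : ∀ c : G, Function.Injective (MulAut.conj c).toMonoidHom :=
    fun c => (MulAut.conj c).injective
  have hcardB : Nat.card (D₂.map (MulAut.conj (g : G)).toMonoidHom) = Nat.card D₂ :=
    Subgroup.card_map_of_injective (hinj _)
  have hcardJ : Nat.card (J₁.map Γ.subtype) = Nat.card D₁ * Nat.card D₂ :=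
    (Subgroup.card_map_of_injective Γ.subtype_injective).trans hJ₁
  have hsJ : Group.IsSolvable (J₁.map Γ.subtype) :=
    Group.isSolvable_of_isSolvable_injective (Subgroup.inclusion_injective hJΓ)
  have hback : ∀ T : Subgroup G, T ≤ D₂.map (MulAut.conj (g : G)).toMonoidHom →
      T.map (MulAut.conj (g : G)⁻¹).toMonoidHom ≤ D₂ := by
    rintro T hT _ ⟨x, hx, rfl⟩
    obtain ⟨y, hy, rfl⟩ := hT hx
    simpa [mul_assoc] using hy
  have hcB : ∀ (t : ℕ) (T : Subgroup G), t.Prime → IsPGroup t T →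
      T ≤ D₂.map (MulAut.conj (g : G)).toMonoidHom → IsCyclic T := by
    intro t T ht hT hTB
    have e := Subgroup.equivMapOfInjective T _ (hinj (g : G)⁻¹)
    have hP : IsPGroup t (T.map (MulAut.conj (g : G)⁻¹).toMonoidHom) := hT.map _
    have := hc2 t _ ht hP (hback T hTB)
    exact isCyclic_of_surjective e.symm e.symm.surjective
  obtain ⟨T, hT, hTp, hTN⟩ := gam_aux (J₁.map Γ.subtype) D₁ _ hsJ hD1J hBJ
    (by rw [hcardJ, hcardB]) (by rw [hcardB]; exact hcop) hD1 hc1 hcB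
  rcases hT with hT | hT
  · exact ⟨g, g.2, Or.inl ⟨T, hT, hTp, hBJ.trans hTN⟩⟩
  · refine ⟨(g : G)⁻¹, Γ.inv_mem g.2, Or.inr ⟨T.map (MulAut.conj (g : G)⁻¹).toMonoidHom,
      hback T hT, ?_, ?_⟩⟩
    · rw [Subgroup.card_map_of_injective (hinj _)]; exact hTp
    · rw [← Subgroup.map_equiv_normalizer_eq]
      exact Subgroup.map_mono (hD1J.trans hTN)

end Cfsg.Agent.Lib.Helper87.BG14
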